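import Cfsg.Agent.H497.S8.SolvTwo

/-!
# S4908, row Ru, SOLV: the numerical part (helper1)

`Adm` : the divisors of the order which pass the conditions modulo 29 and 13; `L13`, `L7` : the members where the columns
of 29 and 13 (29 and 7) have opposite signs.
-/

set_option autoImplicit false
set_option maxRecDepth 100000

namespace Cfsg.Agent.H1.S8.RuNum

def Adm : List ℕ := [
  1, 145, 261, 377, 378, 406, 522, 609, 725, 754, 783, 870, 1015, 1131, 1160, 1392, 1508, 1624, 1740, 1856, 1885,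
  2016, 2030, 2160, 2262, 2610, 2625, 2639, 2784, 2900, 3016, 3045, 3132, 3248, 3276, 3393, 3510, 3625, 3640, 3654,
  3770, 3900, 3915, 4032, 4176, 4524, 4640, 4800, 4872, 5250, 5278, 5655, 5800, 6032, 6264, 6525, 6656, 6786, 7280,
  7308, 7424, 7540, 7800, 7917, 8192, 8700, 8960, 9048, 9280, 9425, 10150, 10179, 10440, 10556, 10962, 11310,
  12064, 12180, 12600, 13050, 13195, 13312, 13572, 13920, 14848, 15080, 15225, 15834, 16240, 16704, 16965, 17472,
  18096, 18720, 18850, 19488, 19575, 20358, 20475, 20880, 21112, 21504, 21750, 22272, 22620, 22750, 23751, 24128,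
  24360, 25375, 25984, 26390, 27000, 27144, 27405, 28000, 28275, 29000, 30160, 31320, 31668, 33408, 33930, 34800,
  34944, 36192, 36540, 37440, 37700, 38976, 39585, 40600, 40716, 41600, 42224, 43500, 43848, 45240, 45500, 46400,
  47125, 47502, 48256, 49140, 50112, 50750, 50895, 52780, 54288, 54810, 55680, 56550, 58464, 60320, 63336, 64960,
  65250, 65975, 67860, 69600, 71253, 72384, 74240, 75400, 76125, 78300, 79170, 81200, 81432, 83200, 84448, 84825,
  87696, 89088, 89856, 90480, 91350, 94250, 95004, 96512, 97875, 98280, 101790, 102400, 103936, 104400, 105560,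
  108576, 109200, 110592, 111360, 113100, 116000, 117000, 118755, 118784, 120640, 121800, 125280, 126672, 129920,
  131950, 135720, 141375, 142506, 144000, 144768, 146160, 150800, 156600, 158340, 162864, 167040, 168896, 169650,
  178176, 179712, 180960, 182700, 185600, 186368, 188500, 190008, 193024, 194880, 197925, 199680, 200448, 203580,
  207872, 211120, 217152, 218400, 221184, 226200, 232000, 233856, 234000, 237510, 241280, 250560, 253344, 254475,
  261000, 263900, 267264, 268800, 271440, 274050, 282750, 285012, 288000, 289536, 292320, 296960, 301600, 304500,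
  307125, 311808, 316680, 325728, 329875, 337792, 339300, 348000, 356265, 361920, 371200, 372736, 377000, 378000,
  380016]

def L13 : List ℕ := [
  2160, 2625, 5250, 8192, 8960, 12600, 27000, 28000, 102400, 144000, 288000]

def L7 : List ℕ := [
  3900, 4800, 6656, 7800, 8192, 13312, 37440, 102400, 110592, 117000, 179712, 199680, 221184, 288000]

/-- opposite signs at 29 and 13 -/
def neg13 (d : ℕ) : Bool :=
  ((d % 29 == 1 || d % 29 == 15) && Nat.ble 10 (d % 13)) ||
    ((d % 29 == 14 || d % 29 == 28) && (Nat.ble 1 (d % 13) && Nat.ble (d % 13) 3))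

/-- opposite signs at 29 and 7 -/
def neg7 (d : ℕ) : Bool :=
  ((d % 29 == 1 || d % 29 == 15) && Nat.ble 4 (d % 7)) ||
    ((d % 29 == 14 || d % 29 == 28) && (Nat.ble 1 (d % 7) && Nat.ble (d % 7) 3))

/-- the conditions for a degree -/
def cond (d : ℕ) : Bool :=
  Nat.ble (d * d) 145926144000 &&
  ((d % 29 == 0 && !(d == 29 || d == 116 || d == 232 || d == 348)) ||
    ((d % 29 == 1 || d % 29 == 14 || d % 29 == 15 || d % 29 == 28) && (d == 1 || d == 378 || Nat.ble 2016 d))) &&
  (Nat.ble (d % 13) 3 || Nat.ble 10 (d % 13))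

theorem mem_divs {d : ℕ} (h : d ∣ 145926144000) : ∃ a < 15, ∃ b < 4, ∃ c < 4, ∃ e < 2, ∃ f < 2, ∃ g < 2,
    d = 2 ^ a * 3 ^ b * 5 ^ c * 7 ^ e * 13 ^ f * 29 ^ g := by
  have h0 : d ∣ 2 ^ 14 * 3 ^ 3 * 5 ^ 3 * 7 ^ 1 * 13 ^ 1 * 29 ^ 1 := by
    have e : 2 ^ 14 * 3 ^ 3 * 5 ^ 3 * 7 ^ 1 * 13 ^ 1 * 29 ^ 1 = 145926144000 := by norm_num
    rwa [e]
  obtain ⟨d5, x6, h5, q6, rfl⟩ := Nat.dvd_mul.1 h0
  obtain ⟨d4, x5, h4, q5, rfl⟩ := Nat.dvd_mul.1 h5
  obtain ⟨d3, x4, h3, q4, rfl⟩ := Nat.dvd_mul.1 h4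
  obtain ⟨d2, x3, h2, q3, rfl⟩ := Nat.dvd_mul.1 h3
  obtain ⟨x1, x2, q1, q2, rfl⟩ := Nat.dvd_mul.1 h2
  obtain ⟨a, ha, rfl⟩ := (Nat.dvd_prime_pow Nat.prime_two).1 q1
  obtain ⟨b, hb, rfl⟩ := (Nat.dvd_prime_pow Nat.prime_three).1 q2
  obtain ⟨c, hc, rfl⟩ := (Nat.dvd_prime_pow Nat.prime_five).1 q3
  obtain ⟨e, he, rfl⟩ := (Nat.dvd_prime_pow (show Nat.Prime 7 by norm_num)).1 q4
  obtain ⟨f, hf, rfl⟩ := (Nat.dvd_prime_pow (show Nat.Prime 13 by norm_num)).1 q5
  obtain ⟨g, hg, rfl⟩ := (Nat.dvd_prime_pow (show Nat.Prime 29 by norm_num)).1 q6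
  exact ⟨a, by omega, b, by omega, c, by omega, e, by omega, f, by omega, g, by omega, rfl⟩

def okd (d : ℕ) : Bool :=
  !(cond d) || (Adm.contains d && ((!(neg13 d) || L13.contains d) && (!(neg7 d) || L7.contains d)))

theorem all_ok : ((List.range 15).all fun a => (List.range 4).all fun b => (List.range 4).all fun c =>
    (List.range 2).all fun e => (List.range 2).all fun f => (List.range 2).all fun g =>
      okd (2 ^ a * 3 ^ b * 5 ^ c * 7 ^ e * 13 ^ f * 29 ^ g)) = true := by decide +kernel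

theorem okd_of_dvd {d : ℕ} (h : d ∣ 145926144000) : okd d = true := by
  obtain ⟨a, ha, b, hb, c, hc, e, he, f, hf, g, hg, rfl⟩ := mem_divs h
  have h1 := List.all_eq_true.1 all_ok a (List.mem_range.2 ha)
  have h2 := List.all_eq_true.1 h1 b (List.mem_range.2 hb)
  have h3 := List.all_eq_true.1 h2 c (List.mem_range.2 hc)
  have h4 := List.all_eq_true.1 h3 e (List.mem_range.2 he)
  have h5 := List.all_eq_true.1 h4 f (List.mem_range.2 hf)
  exact List.all_eq_true.1 h5 g (List.mem_range.2 hg)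

theorem mem_adm {d : ℕ} (h : d ∣ 145926144000) (hc : cond d = true) :
    d ∈ Adm ∧ (neg13 d = true → d ∈ L13) ∧ (neg7 d = true → d ∈ L7) := by
  have h1 := okd_of_dvd h
  unfold okd at h1
  rw [hc, Bool.not_true, Bool.false_or, Bool.and_eq_true, Bool.and_eq_true] at h1
  obtain ⟨h2, h3, h4⟩ := h1
  refine ⟨List.contains_iff_mem.1 h2, fun h5 => ?_, fun h5 => ?_⟩
  · rw [h5, Bool.not_true, Bool.false_or] at h3
    exact List.contains_iff_mem.1 h3
  · rw [h5, Bool.not_true, Bool.false_or] at h4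
    exact List.contains_iff_mem.1 h4

theorem check : H497.S8.chk2 382001 [2, 3, 5, 7, 13, 29] Adm [[378], [406], [783], [3276], L13, L7] = true := by
  decide +kernel

end Cfsg.Agent.H1.S8.RuNum
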